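-- Team project OPAR (S5989), package [UNI1] (helper43): the unipotent derangement for `d` odd
-- and `m ≡ 1 (mod 4)`.  `x = exp(2 S)` with `S = s ⊕ (-sᵀ)`, `s` nilpotent of type `J₃ ⊕ J₂^k`.
import Mathlib
import Cfsg.Agent.Lib.Helper70.OPar.Defs
import Cfsg.Agent.Lib.Helper43.OPar.UniAbs
import Cfsg.Agent.Lib.Helper12.OHyp.EBlkOdd
import Cfsg.Agent.Lib.Helper87.OHyp.Perp
import Cfsg.Agent.Lib.Helper97.OHyp.OddOmega

set_option autoImplicit false
open scoped MatrixGroups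
open Matrix

namespace Cfsg.Agent.Lib.Helper43.OPar

open Cfsg.Agent.Lib.Helper23.OHyp

universe u

section explicit

variable {F : Type u} [Field F]

/-- A nilpotent matrix of type `J₃ ⊕ J₂^k` on `Fin d`, `d = 3 + 2 k`, with certificates:
`s³ = 0`, a contracting pair `s c + dd s = 1` (so `ker s ≤ range s`, and the same for `sᵀ`),
and a rank one factorisation of `s²`. -/
theorem exists_nil3 (d : ℕ) (hd : Odd d) (h4 : 4 ≤ d) :
    ∃ (s c dd : Matrix (Fin d) (Fin d) F) (P : Matrix (Fin d) (Fin 1) F)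
      (R : Matrix (Fin 1) (Fin d) F),
      s * s * s = 0 ∧ s * c + dd * s = 1 ∧ s * s = P * R := by
  classical
  obtain ⟨j, hj⟩ := hd
  have hk : ∃ k, d = 3 + (k + k) := ⟨j - 1, by omega⟩
  obtain ⟨k, rfl⟩ := hk
  let e : Fin 3 ⊕ (Fin k ⊕ Fin k) ≃ Fin (3 + (k + k)) :=
    (Equiv.sumCongr (Equiv.refl _) finSumFinEquiv).trans finSumFinEquiv
  let J : Matrix (Fin 3) (Fin 3) F := !![0, 1, 0; 0, 0, 1; 0, 0, 0]
  let Jc : Matrix (Fin 3) (Fin 3) F := !![0, 0, 0; 1, 0, 0; 0, 1, 0]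
  let Jd : Matrix (Fin 3) (Fin 3) F := !![0, 0, 0; 0, 0, 0; 0, 1, 0]
  let P0 : Matrix (Fin 3) (Fin 1) F := !![1; 0; 0]
  let R0 : Matrix (Fin 1) (Fin 3) F := !![0, 0, 1]
  have hJ2 : J * J = P0 * R0 := by
    ext i j
    fin_cases i <;> fin_cases j <;> simp [J, P0, R0, Matrix.mul_apply, Fin.sum_univ_three]
  have hJ3 : J * J * J = 0 := by
    ext i j
    fin_cases i <;> fin_cases j <;> simp [J, Matrix.mul_apply, Fin.sum_univ_three]
  have hJc : J * Jc + Jd * J = 1 := by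
    ext i j
    fin_cases i <;> fin_cases j <;>
      simp [J, Jc, Jd, Matrix.mul_apply, Fin.sum_univ_three, Matrix.one_apply]
  let K : Matrix (Fin k ⊕ Fin k) (Fin k ⊕ Fin k) F := Matrix.fromBlocks 0 1 0 0
  let Kc : Matrix (Fin k ⊕ Fin k) (Fin k ⊕ Fin k) F := Matrix.fromBlocks 0 0 1 0
  have hK2 : K * K = 0 := by
    simp only [K, Matrix.fromBlocks_multiply]
    simp [Matrix.fromBlocks_zero]
  have hKc : K * Kc + Kc * K = 1 := by
    simp only [K, Kc, Matrix.fromBlocks_multiply, Matrix.fromBlocks_add]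
    simp [Matrix.fromBlocks_one]
  let s' : Matrix (Fin 3 ⊕ (Fin k ⊕ Fin k)) (Fin 3 ⊕ (Fin k ⊕ Fin k)) F :=
    Matrix.fromBlocks J 0 0 K
  let c' : Matrix (Fin 3 ⊕ (Fin k ⊕ Fin k)) (Fin 3 ⊕ (Fin k ⊕ Fin k)) F :=
    Matrix.fromBlocks Jc 0 0 Kc
  let dd' : Matrix (Fin 3 ⊕ (Fin k ⊕ Fin k)) (Fin 3 ⊕ (Fin k ⊕ Fin k)) F :=
    Matrix.fromBlocks Jd 0 0 Kc
  let P' : Matrix (Fin 3 ⊕ (Fin k ⊕ Fin k)) (Fin 1) F := Matrix.fromRows P0 0
  let R' : Matrix (Fin 1) (Fin 3 ⊕ (Fin k ⊕ Fin k)) F := Matrix.fromCols R0 0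
  have hs2 : s' * s' = Matrix.fromBlocks (J * J) 0 0 0 := by
    simp only [s', Matrix.fromBlocks_multiply, hK2]
    simp
  have hs3 : s' * s' * s' = 0 := by
    rw [hs2]
    simp only [s', Matrix.fromBlocks_multiply, hJ3]
    simp [Matrix.fromBlocks_zero]
  have hcert : s' * c' + dd' * s' = 1 := by
    simp only [s', c', dd', Matrix.fromBlocks_multiply, Matrix.fromBlocks_add]
    simp only [Matrix.mul_zero, Matrix.zero_mul, add_zero, zero_add, hJc, hKc,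
      Matrix.fromBlocks_one]
  have hPR : s' * s' = P' * R' := by
    rw [hs2, hJ2]
    simp only [P', R', Matrix.fromRows_mul_fromCols]
    simp
  let φ := Matrix.reindexAlgEquiv F F e
  refine ⟨φ s', φ c', φ dd', P'.submatrix e.symm (Equiv.refl (Fin 1)),
    R'.submatrix (Equiv.refl (Fin 1)) e.symm, ?_, ?_, ?_⟩
  · rw [← map_mul, ← map_mul, hs3, map_zero]
  · rw [← map_mul, ← map_mul, ← map_add, hcert, map_one]
  · rw [← map_mul, hPR, Matrix.submatrix_mul_equiv]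
    rfl

end explicit

/-- [UNI1] -/
theorem pkgUni1 : Cfsg.Agent.Lib.Helper70.OPar.PkgUni1.{u} := by
  intro F _ _ p hp _ hp2 d m h4 hmodd hmd hdodd hm4
  classical
  have hpp : p.Prime := hp.out
  have h2 : (2 : F) ≠ 0 := by
    intro h
    have h' : ((2 : ℕ) : F) = 0 := by exact_mod_cast h
    rw [CharP.cast_eq_zero_iff F p] at h'
    exact hp2 ((Nat.prime_dvd_prime_iff_eq hpp Nat.prime_two).1 h')
  have h4F : (4 : F) ≠ 0 := by
    have h22 : (4 : F) = 2 * 2 := by norm_num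
    rw [h22]
    exact mul_ne_zero h2 h2
  have hp3 : 3 ≤ p := by
    have := hpp.two_le
    omega
  obtain ⟨s, c, dd, P, R, hs3, hcert, hPR⟩ := exists_nil3 (F := F) d hdodd h4
  haveI : Nonempty (Fin d) := ⟨⟨0, by omega⟩⟩
  set Q := Cfsg.quadFormPlus d F with hQdef
  have hQ : Cfsg.Geo.IsNondegenerateQuadraticForm Q :=
    Cfsg.Agent.Lib.Helper12.OHyp.nondeg_quadFormPlus d
  -- the matrices `a = exp(2 s)` and `b = exp(-2 s)`
  let n : Matrix (Fin d) (Fin d) F := (s + s) + (s * s + s * s)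
  let n' : Matrix (Fin d) (Fin d) F := -(s + s) + (s * s + s * s)
  let a : Matrix (Fin d) (Fin d) F := 1 + n
  let b : Matrix (Fin d) (Fin d) F := 1 + n'
  have hab : a * b = 1 := by
    have e1 : a * b = 1 + (s * s * s) * (s + s + s + s) := by
      simp only [a, b, n, n']
      noncomm_ring
    rw [e1, hs3, Matrix.zero_mul, add_zero]
  have hba : b * a = 1 := by
    have e1 : b * a = 1 + (s * s * s) * (s + s + s + s) := by
      simp only [a, b, n, n']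
      noncomm_ring
    rw [e1, hs3, Matrix.zero_mul, add_zero]
  have hn3 : n ^ 3 = 0 := by
    have e1 : n ^ 3 = (s * s * s) * ((8 : ℤ) • (1 : Matrix (Fin d) (Fin d) F) + (24 : ℤ) • s
        + (24 : ℤ) • (s * s) + (8 : ℤ) • (s * s * s)) := by
      simp only [n]
      noncomm_ring
    rw [e1, hs3, Matrix.zero_mul]
  have hnn : n + n = (s + s + s + s) + n * n := by
    have e1 : n + n = (s + s + s + s) + n * n - (s * s * s) * ((8 : ℤ) • (1 : Matrix (Fin d) (Fin d) F)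
        + (4 : ℤ) • s) := by
      simp only [n]
      noncomm_ring
    rw [e1, hs3, Matrix.zero_mul, sub_zero]
  have hnn' : n' + n' = ((-s) + (-s) + (-s) + (-s)) + n' * n' := by
    have e1 : n' + n' = ((-s) + (-s) + (-s) + (-s)) + n' * n'
        + (s * s * s) * ((8 : ℤ) • (1 : Matrix (Fin d) (Fin d) F) - (4 : ℤ) • s) := by
      simp only [n']
      noncomm_ring
    rw [e1, hs3, Matrix.zero_mul, add_zero]
  let M : GL (Fin d) F := ⟨a, b, hab, hba⟩
  have hMp : M ^ p = 1 := by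
    apply Units.ext
    rw [Units.val_pow_eq_pow_val, Units.val_one]
    show (1 + n) ^ p = 1
    rw [add_pow_char_of_commute p (Commute.one_left n), one_pow,
      pow_eq_zero_of_le hp3 hn3, add_zero]
  let x : GL (Fin d ⊕ Fin d) F := Cfsg.Agent.Lib.Helper12.OHyp.hypGL M
  have hxval : (x : Matrix (Fin d ⊕ Fin d) (Fin d ⊕ Fin d) F) = Matrix.fromBlocks a 0 0 bᵀ := rfl
  have hxiso : x ∈ Cfsg.isometryGroup F Q := Cfsg.Agent.Lib.Helper12.OHyp.hypGL_mem M
  have hisom : ∀ v, Q ((x : Matrix (Fin d ⊕ Fin d) (Fin d ⊕ Fin d) F) *ᵥ v) = Q v :=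
    fun v => hxiso v v
  have hxp : x ^ p = 1 := Cfsg.Agent.Lib.Helper12.OHyp.hypGL_pow M p hMp
  -- the skew-adjoint logarithm
  let Smat : Matrix (Fin d ⊕ Fin d) (Fin d ⊕ Fin d) F := Matrix.fromBlocks s 0 0 (-s)ᵀ
  let N : Matrix (Fin d ⊕ Fin d) (Fin d ⊕ Fin d) F :=
    (x : Matrix (Fin d ⊕ Fin d) (Fin d ⊕ Fin d) F) - 1
  have hN : N = Matrix.fromBlocks n 0 0 n'ᵀ := by
    show (x : Matrix (Fin d ⊕ Fin d) (Fin d ⊕ Fin d) F) - 1 = _
    have h1 : (1 : Matrix (Fin d ⊕ Fin d) (Fin d ⊕ Fin d) F) = Matrix.fromBlocks 1 0 0 1 :=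
      Matrix.fromBlocks_one.symm
    rw [hxval, sub_eq_iff_eq_add, h1, Matrix.fromBlocks_add]
    congr 1
    · simp only [a]
      rw [add_comm]
    · simp
    · simp
    · simp only [b, Matrix.transpose_add, Matrix.transpose_one]
      rw [add_comm]
  have hT : N + N = (Smat + Smat + Smat + Smat) + N * N := by
    have hnn't : n'ᵀ + n'ᵀ = ((-s)ᵀ + (-s)ᵀ + (-s)ᵀ + (-s)ᵀ) + n'ᵀ * n'ᵀ := by
      have h := congrArg Matrix.transpose hnn'
      simp only [Matrix.transpose_add, Matrix.transpose_mul] at h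
      exact h
    rw [hN]
    simp only [Smat, Matrix.fromBlocks_multiply, Matrix.fromBlocks_add, Matrix.mul_zero,
      Matrix.zero_mul, add_zero, zero_add]
    rw [← hnn, ← hnn't]
  set S : (Fin d ⊕ Fin d → F) →ₗ[F] (Fin d ⊕ Fin d → F) := Matrix.toLin' Smat with hSdef
  have hSapp : ∀ v, S v = Smat *ᵥ v := fun v => Matrix.toLin'_apply Smat v
  -- `S` is skew-adjoint
  have hdot : ∀ (A : Matrix (Fin d) (Fin d) F) (u v : Fin d → F),
      u ⬝ᵥ (Aᵀ *ᵥ v) = (A *ᵥ u) ⬝ᵥ v := by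
    intro A u v
    rw [Matrix.dotProduct_mulVec, Matrix.vecMul_transpose]
  have hpol : ∀ u v : Fin d ⊕ Fin d → F, QuadraticMap.polar Q u v =
      (u ∘ Sum.inl) ⬝ᵥ (v ∘ Sum.inr) + (v ∘ Sum.inl) ⬝ᵥ (u ∘ Sum.inr) := by
    intro u v
    rw [hQdef, Cfsg.Agent.Lib.Helper12.OHyp.polar_quadFormPlus]
    simp only [dotProduct, Function.comp]
    rw [Finset.sum_add_distrib]
  have hSl : ∀ u : Fin d ⊕ Fin d → F, (Smat *ᵥ u) ∘ Sum.inl = s *ᵥ (u ∘ Sum.inl) := by
    intro u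
    funext i
    simp [Smat, Matrix.fromBlocks_mulVec]
  have hSr : ∀ u : Fin d ⊕ Fin d → F, (Smat *ᵥ u) ∘ Sum.inr = (-s)ᵀ *ᵥ (u ∘ Sum.inr) := by
    intro u
    funext i
    simp [Smat, Matrix.fromBlocks_mulVec]
  have hskew : ∀ u v, QuadraticMap.polar Q (S u) v = - QuadraticMap.polar Q u (S v) := by
    intro u v
    rw [hSapp, hSapp, hpol, hpol, hSl, hSr, hSl, hSr, hdot, hdot, Matrix.neg_mulVec,
      Matrix.neg_mulVec, neg_dotProduct, neg_dotProduct]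
    ring
  -- `ker S ≤ range S`
  have hcertS : Smat * Matrix.fromBlocks c 0 0 (-dd)ᵀ + Matrix.fromBlocks dd 0 0 (-c)ᵀ * Smat
      = 1 := by
    simp only [Smat, Matrix.fromBlocks_multiply, Matrix.fromBlocks_add, Matrix.mul_zero,
      Matrix.zero_mul, add_zero, zero_add]
    rw [← Matrix.transpose_mul, ← Matrix.transpose_mul, ← Matrix.transpose_add, neg_mul_neg,
      neg_mul_neg, add_comm (dd * s) (s * c), hcert, Matrix.transpose_one, Matrix.fromBlocks_one]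
  have hker : LinearMap.ker S ≤ LinearMap.range S := by
    intro v hv
    have hv' : Smat *ᵥ v = 0 := by
      rw [← hSapp]
      exact hv
    refine ⟨Matrix.fromBlocks c 0 0 (-dd)ᵀ *ᵥ v, ?_⟩
    rw [hSapp, Matrix.mulVec_mulVec]
    have h1 := congrArg (fun A => A *ᵥ v) hcertS
    simp only [Matrix.add_mulVec, Matrix.one_mulVec] at h1
    rw [← Matrix.mulVec_mulVec _ _ Smat, hv', Matrix.mulVec_zero, add_zero] at h1
    exact h1
  -- `rank S² ≤ 2`
  have hS2 : Smat * Smat = (Matrix.fromBlocks P 0 0 Rᵀ :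
      Matrix (Fin d ⊕ Fin d) (Fin 1 ⊕ Fin 1) F) * Matrix.fromBlocks R 0 0 Pᵀ := by
    simp only [Smat, Matrix.fromBlocks_multiply, Matrix.mul_zero, Matrix.zero_mul, add_zero,
      zero_add]
    rw [← Matrix.transpose_mul, ← Matrix.transpose_mul, neg_mul_neg, hPR]
  have hrk : Module.finrank F ↥(LinearMap.range (S ∘ₗ S)) ≤ 2 := by
    have h1 : S ∘ₗ S = (Smat * Smat).mulVecLin := by
      rw [hSdef, ← Matrix.toLin'_mul]
      rfl
    rw [h1]
    have h2' : (Smat * Smat).rank ≤ 2 := by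
      rw [hS2]
      refine le_trans (Matrix.rank_mul_le_left _ _) ?_
      refine le_trans (Matrix.rank_le_card_width _) ?_
      simp
    exact h2'
  -- invariance under `x` gives invariance under `S`
  have hSinv : ∀ U : Submodule F (Fin d ⊕ Fin d → F),
      Inv (x : Matrix (Fin d ⊕ Fin d) (Fin d ⊕ Fin d) F) U → ∀ w ∈ U, S w ∈ U := by
    intro U hU w hw
    have hx : ∀ v ∈ U, (x : Matrix (Fin d ⊕ Fin d) (Fin d ⊕ Fin d) F) *ᵥ v ∈ U := by
      intro v hv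
      have h1 : Matrix.toLin' (x : Matrix (Fin d ⊕ Fin d) (Fin d ⊕ Fin d) F) v ∈ U :=
        hU (Submodule.mem_map.2 ⟨v, hv, rfl⟩)
      rwa [Matrix.toLin'_apply] at h1
    have hNU : ∀ v ∈ U, N *ᵥ v ∈ U := by
      intro v hv
      show ((x : Matrix (Fin d ⊕ Fin d) (Fin d ⊕ Fin d) F) - 1) *ᵥ v ∈ U
      rw [Matrix.sub_mulVec, Matrix.one_mulVec]
      exact U.sub_mem (hx v hv) hv
    have e1 : N *ᵥ w + N *ᵥ w = (Smat *ᵥ w + Smat *ᵥ w + Smat *ᵥ w + Smat *ᵥ w)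
        + N *ᵥ (N *ᵥ w) := by
      have h1 := congrArg (fun A => A *ᵥ w) hT
      simp only [Matrix.add_mulVec, ← Matrix.mulVec_mulVec] at h1
      exact h1
    have e2 : Smat *ᵥ w = (4 : F)⁻¹ • (N *ᵥ w + N *ᵥ w - N *ᵥ (N *ᵥ w)) := by
      rw [e1, add_sub_cancel_right]
      funext i
      simp only [Pi.smul_apply, Pi.add_apply, smul_eq_mul]
      field_simp
      ring
    rw [hSapp, e2]
    exact U.smul_mem _ (U.sub_mem (U.add_mem (hNU w hw) (hNU w hw)) (hNU _ (hNU w hw)))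
  -- `x ≠ 1`
  have hx1 : x ≠ 1 := by
    intro h
    have hN0 : N = 0 := by
      show (x : Matrix (Fin d ⊕ Fin d) (Fin d ⊕ Fin d) F) - 1 = 0
      rw [h, Units.val_one, sub_self]
    rw [hN0] at hT
    have h4S : (4 : F) • Smat = 0 := by
      have e : (4 : F) • Smat = Smat + Smat + Smat + Smat := by module
      rw [e]
      simpa using hT.symm
    have hS0 : Smat = 0 := by
      rcases smul_eq_zero.1 h4S with h' | h'
      · exact absurd h' h4F
      · exact h'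
    rw [hS0, Matrix.zero_mul, Matrix.mul_zero, add_zero] at hcertS
    exact zero_ne_one hcertS
  have hord : orderOf x = p := orderOf_eq_prime hxp hx1
  have hxΩ : x ∈ Cfsg.Geo.omegaGL Q :=
    Cfsg.Agent.Lib.Helper97.OHyp.pkgOddOmega F (Fin d ⊕ Fin d) Q hQ h2 x hxiso
      (by rw [hord]; exact hpp.odd_of_ne_two hp2)
  refine ⟨x, hxΩ, hxp, hx1, ?_⟩
  intro W hWm hWnd hWinv
  have hdet : IsUnit (x : Matrix (Fin d ⊕ Fin d) (Fin d ⊕ Fin d) F).det :=
    (Matrix.isUnit_iff_isUnit_det _).1 x.isUnit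
  have hTopInv : Inv (x : Matrix (Fin d ⊕ Fin d) (Fin d ⊕ Fin d) F) ⊤ := le_top
  have hTopNd : Nd Q ⊤ := by
    intro w _ hw
    obtain ⟨⟨y, hy⟩, ⟨z, hz⟩⟩ := hQ.nondegenerate w hw
    exact ⟨⟨y, trivial, hy⟩, ⟨z, trivial, hz⟩⟩
  obtain ⟨W', -, hW'inv, -, hperp, hsup, -⟩ :=
    Cfsg.Agent.Lib.Helper87.OHyp.pkgPerp F (Fin d ⊕ Fin d) Q hQ
      (x : Matrix (Fin d ⊕ Fin d) (Fin d ⊕ Fin d) F) hisom hdet ⊤ W le_top hTopInv hWinv
      hTopNd hWnd
  have hdisj : W ⊓ W' = ⊥ := by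
    rw [eq_bot_iff]
    rintro v ⟨hvW, hvW'⟩
    rw [Submodule.mem_bot]
    by_contra hne
    obtain ⟨⟨y, hy, hy'⟩, -⟩ := hWnd v hvW hne
    exact hy' (hperp y hy v hvW')
  have hfin := skew_count Q hQ h2 S hskew hker hrk W W' (hSinv W hWinv) (hSinv W' hW'inv)
    hsup hdisj hWnd (by rw [hWm]; exact hmodd)
  rw [hWm] at hfin
  omega

end Cfsg.Agent.Lib.Helper43.OPar
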